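import Mathlib
import Cfsg.Agent.Lib.Helper56.TC
import Cfsg.Agent.Lib.Helper28.HeMult.L2.D
set_option autoImplicit false
set_option maxRecDepth 1000000

namespace Cfsg.Agent.Lib.Helper28.HeMult.L2

open Cfsg.Agent.Lib.Helper56.TC Cfsg.Agent.Lib.Helper56.TC.Tabs
open Cfsg.Agent.Lib.Helper28.CovL

theorem cN_0 : allRange (fun x => forceN T.chkName x) 0 2194 = true := by decide +kernel
theorem cN_2194 : allRange (fun x => forceN T.chkName x) 2194 1244 = true := by decide +kernel
theorem cN_3438 : allRange (fun x => forceN T.chkName x) 3438 883 = true := by decide +kernel
theorem cN_4321 : allRange (fun x => forceN T.chkName x) 4321 1870 = true := by decide +kernel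
theorem cN_6191 : allRange (fun x => forceN T.chkName x) 6191 1923 = true := by decide +kernel
theorem cN_8114 : allRange (fun x => forceN T.chkName x) 8114 1900 = true := by decide +kernel
theorem cN_10014 : allRange (fun x => forceN T.chkName x) 10014 1974 = true := by decide +kernel
theorem cN_11988 : allRange (fun x => forceN T.chkName x) 11988 1966 = true := by decide +kernel
theorem cN_13954 : allRange (fun x => forceN T.chkName x) 13954 1935 = true := by decide +kernel
theorem cN_15889 : allRange (fun x => forceN T.chkName x) 15889 1916 = true := by decide +kernel
theorem cN_17805 : allRange (fun x => forceN T.chkName x) 17805 2043 = true := by decide +kernel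
theorem cN_19848 : allRange (fun x => forceN T.chkName x) 19848 2034 = true := by decide +kernel

end Cfsg.Agent.Lib.Helper28.HeMult.L2
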