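import Mathlib
import Cfsg.Agent.Lib.Helper56.TC
import Cfsg.Agent.Lib.Helper28.HeMult.L2.D
set_option autoImplicit false
set_option maxRecDepth 1000000

namespace Cfsg.Agent.Lib.Helper28.HeMult.L2

open Cfsg.Agent.Lib.Helper56.TC Cfsg.Agent.Lib.Helper56.TC.Tabs
open Cfsg.Agent.Lib.Helper28.CovL

theorem cN_21882 : allRange (fun x => forceN T.chkName x) 21882 1937 = true := by decide +kernel
theorem cN_23819 : allRange (fun x => forceN T.chkName x) 23819 2008 = true := by decide +kernel
theorem cN_25827 : allRange (fun x => forceN T.chkName x) 25827 1895 = true := by decide +kernel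
theorem cN_27722 : allRange (fun x => forceN T.chkName x) 27722 1844 = true := by decide +kernel
theorem cN_29566 : allRange (fun x => forceN T.chkName x) 29566 1834 = true := by decide +kernel
theorem cN_31400 : allRange (fun x => forceN T.chkName x) 31400 1938 = true := by decide +kernel
theorem cN_33338 : allRange (fun x => forceN T.chkName x) 33338 2008 = true := by decide +kernel
theorem cN_35346 : allRange (fun x => forceN T.chkName x) 35346 1997 = true := by decide +kernel
theorem cN_37343 : allRange (fun x => forceN T.chkName x) 37343 1791 = true := by decide +kernel
theorem cN_39134 : allRange (fun x => forceN T.chkName x) 39134 1899 = true := by decide +kernel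
theorem cN_41033 : allRange (fun x => forceN T.chkName x) 41033 2032 = true := by decide +kernel
theorem cN_43065 : allRange (fun x => forceN T.chkName x) 43065 1788 = true := by decide +kernel

end Cfsg.Agent.Lib.Helper28.HeMult.L2
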