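import Mathlib
import Cfsg.Agent.Lib.Helper56.TC
import Cfsg.Agent.Lib.Helper28.HeMult.L2.D
set_option autoImplicit false
set_option maxRecDepth 1000000

namespace Cfsg.Agent.Lib.Helper28.HeMult.L2

open Cfsg.Agent.Lib.Helper56.TC Cfsg.Agent.Lib.Helper56.TC.Tabs
open Cfsg.Agent.Lib.Helper28.CovL

theorem cN_44853 : allRange (fun x => forceN T.chkName x) 44853 1861 = true := by decide +kernel
theorem cN_46714 : allRange (fun x => forceN T.chkName x) 46714 1894 = true := by decide +kernel
theorem cN_48608 : allRange (fun x => forceN T.chkName x) 48608 1844 = true := by decide +kernel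
theorem cN_50452 : allRange (fun x => forceN T.chkName x) 50452 1832 = true := by decide +kernel
theorem cN_52284 : allRange (fun x => forceN T.chkName x) 52284 1770 = true := by decide +kernel
theorem cN_54054 : allRange (fun x => forceN T.chkName x) 54054 1773 = true := by decide +kernel
theorem cN_55827 : allRange (fun x => forceN T.chkName x) 55827 1631 = true := by decide +kernel
theorem cN_57458 : allRange (fun x => forceN T.chkName x) 57458 1788 = true := by decide +kernel
theorem cN_59246 : allRange (fun x => forceN T.chkName x) 59246 1690 = true := by decide +kernel
theorem cN_60936 : allRange (fun x => forceN T.chkName x) 60936 511 = true := by decide +kernel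
theorem cF_0 : allRange (fun x => forceN T.chkFinName x) 0 909 = true := by decide +kernel
theorem cF_909 : allRange (fun x => forceN T.chkFinName x) 909 909 = true := by decide +kernel

end Cfsg.Agent.Lib.Helper28.HeMult.L2
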